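import Cfsg.Agent.H63.AnDefs2

/-!
# Permutations acting on the even column products of an involution of type four
-/

set_option autoImplicit false

namespace Cfsg.Agent.H94.AnP4d

open Cfsg.Agent.H63.AN
open Cfsg.Agent.H78 (symOn)
open Equiv (swap Perm)
open Equiv.Perm (sign)
open scoped commutatorElement

variable {α : Type} [Fintype α] [DecidableEq α] {x : Fin 10 ↪ α} {b b' : Perm α}
  {m m' : Perm (Fin 10)}

/-- `b` acts on the first eight points as `m` -/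
def Ac (x : Fin 10 ↪ α) (b : Perm α) (m : Perm (Fin 10)) : Prop :=
  (∀ i, m i < 8 ↔ i < 8) ∧ ∀ i < 8, b (x i) = x (m i)

section
omit [Fintype α] [DecidableEq α]

theorem Ac.mul (h : Ac x b m) (h' : Ac x b' m') : Ac x (b * b') (m * m') :=
  ⟨fun i => (h.1 _).trans (h'.1 i), fun i hi => by
    rw [Perm.mul_apply, h'.2 i hi, h.2 _ ((h'.1 i).2 hi), Perm.mul_apply]⟩

theorem Ac.inv (h : Ac x b m) : Ac x b⁻¹ m⁻¹ := by
  have k : ∀ i, m⁻¹ i < 8 ↔ i < 8 := fun i => by rw [← h.1]; simp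
  exact ⟨k, fun i hi => by rw [Perm.inv_eq_iff_eq, h.2 _ ((k i).2 hi)]; simp⟩

theorem Ac.comm (h : Ac x b m) (h' : Ac x b' m') (c : Commute b b') :
    ∀ i < 8, (m * m') i = (m' * m) i := fun i hi =>
  x.injective (((h.mul h').2 i hi).symm.trans (c.eq ▸ (h'.mul h).2 i hi))

end

theorem mem_iff : b ∈ symOn (em x zz).supportᶜ ↔ ∀ i < 8, b (x i) = x i := by
  have k : ∀ i, i ∈ zz.support ↔ i < 8 := by decide +kernel
  simp only [H78.mem_symOn, Finset.mem_compl, not_not, support_em, Finset.mem_map, k]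
  exact ⟨fun h i hi => h _ ⟨i, hi, rfl⟩, by rintro h _ ⟨i, hi, rfl⟩; exact h i hi⟩

theorem Ac.dec (h : Ac x b m) (e : ∀ i < 8, m i = m' i) :
    ∃ σ ∈ symOn (em x zz).supportᶜ, b = em x m' * σ :=
  ⟨(em x m')⁻¹ * b, mem_iff.2 fun i hi => by
    rw [Perm.mul_apply, Perm.inv_eq_iff_eq, h.2 i hi, em_apply, e i hi], by group⟩

/-- a product of column transpositions -/
def cc (p q r s : Bool) : Perm (Fin 10) :=
  pw p (swap 0 1) * pw q (swap 2 3) * pw r t3 * pw s t4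

theorem like_one (h : Like (em x zz) 1 b) : ∃ p q r s, Ac x b (cc p q r s) := by
  have k0 : ∀ w : Perm (Fin 10), sign w = 1 → (∀ l, w l = l ∨ w l = zz l) → ∀ i, w i ≠ i →
      ∃ l, w l ≠ l ∧ b (x i) = x l := fun w w1 w2 i hi => by
    have e := h.2 (em x w) ⟨by rw [sign_em, w1], fun y => by
      by_cases k : ∃ l, x l = y
      · obtain ⟨l, rfl⟩ := k
        simpa [em_apply] using w2 l
      · exact Or.inl (em_of_not x w (not_exists.1 k))⟩
    rw [one_mul, inv_one, mul_one, mul_inv_eq_iff_eq_mul] at e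
    have e1 : em x w (b (x i)) ≠ b (x i) := by
      rw [← Perm.mul_apply, ← e, Perm.mul_apply, em_apply]; simpa using hi
    obtain ⟨l, hl⟩ : ∃ l, x l = b (x i) := by
      by_contra k
      exact e1 (em_of_not x w (not_exists.1 k))
    exact ⟨l, fun k => e1 (by rw [← hl, em_apply, k]), hl.symm⟩
  have k1 : ∀ i : Fin 10, i < 8 → ∃ j k : Fin 10, i ≠ zz i ∧ j ≠ zz j ∧ k ≠ zz k ∧
      (∀ l, (swap i (zz i) * swap j (zz j)) l = l ∨ (swap i (zz i) * swap j (zz j)) l = zz l) ∧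
      (∀ l, (swap i (zz i) * swap k (zz k)) l = l ∨ (swap i (zz i) * swap k (zz k)) l = zz l) ∧
      (swap i (zz i) * swap j (zz j)) i ≠ i ∧ (swap i (zz i) * swap k (zz k)) i ≠ i ∧
      ∀ l, (swap i (zz i) * swap j (zz j)) l ≠ l → (swap i (zz i) * swap k (zz k)) l ≠ l →
        ∃ β, l = pw β zz i := by decide +kernel
  have k2 : ∀ i : Fin 10, ∃ β, i < 8 → b (x i) = x (pw β zz i) := fun i => by
    by_cases hi : i < 8
    · obtain ⟨j, k, a1, a2, a3, a4, a5, a6, a7, a8⟩ := k1 i hi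
      obtain ⟨l, b1, b2⟩ := k0 _ (by simp [a1, a2]) a4 i a6
      obtain ⟨l', b3, b4⟩ := k0 _ (by simp [a1, a3]) a5 i a7
      obtain rfl := x.injective (b2.symm.trans b4)
      obtain ⟨β, e⟩ := a8 l b1 b3
      exact ⟨β, fun _ => e ▸ b2⟩
    · exact ⟨false, fun k => absurd k hi⟩
  choose β hβ using k2
  have k4 : ∀ i < 8, b (x (zz i)) = x (zz (pw (β i) zz i)) := fun i hi => by
    rw [← em_apply, ← Perm.mul_apply, h.1.eq, Perm.mul_apply, hβ i hi, em_apply]
  have k5 : ∀ p q r s, ∀ i, cc p q r s i < 8 ↔ i < 8 := by decide +kernel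
  have k6 : ∀ β : Fin 4 → Bool, ∀ i < 8, ∃ j : Fin 4,
      (i = ![0, 2, 4, 6] j ∧ cc (β 0) (β 1) (β 2) (β 3) i = pw (β j) zz i) ∨
      (i = zz (![0, 2, 4, 6] j) ∧
        cc (β 0) (β 1) (β 2) (β 3) i = zz (pw (β j) zz (![0, 2, 4, 6] j))) := by decide +kernel
  have k7 : ∀ j : Fin 4, (![0, 2, 4, 6] j : Fin 10) < 8 := by decide
  refine ⟨β 0, β 2, β 4, β 6, k5 _ _ _ _, fun i hi => ?_⟩
  obtain ⟨j, ⟨rfl, e⟩ | ⟨rfl, e⟩⟩ := k6 (fun j => β (![0, 2, 4, 6] j)) i hi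
  · exact (hβ _ hi).trans (congrArg x e.symm)
  · exact (k4 _ (k7 j)).trans (congrArg x e.symm)

theorem like {s : Perm (Fin 10)} (h : Like (em x zz) (em x s) b) (c : ∀ i, s (zz i) = zz (s i))
    (k : ∀ i, s i < 8 ↔ i < 8) : ∃ p q r u, Ac x b (s * cc p q r u) := by
  obtain ⟨p, q, r, u, e⟩ := like_one (x := x) (b := (em x s)⁻¹ * b)
    ⟨(Commute.map (Equiv.ext c : Commute s zz) (em x)).inv_left.mul_left h.1, fun y hy => by
      rw [show (em x s)⁻¹ * b * y * ((em x s)⁻¹ * b)⁻¹ = (em x s)⁻¹ * (b * y * b⁻¹) * em x s by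
        group, h.2 y hy]
      group⟩
  have := Ac.mul (⟨k, fun i _ => em_apply x s i⟩ : Ac x (em x s) s) e
  rw [mul_inv_cancel_left] at this
  exact ⟨p, q, r, u, this⟩

theorem p4d : P4dStmt := by
  intro α _ _ x
  refine ⟨fun b b3 h b2 h3 c => ?_, fun b b1 b2 b3 h h1 h2 h3 c1 c2 => ?_⟩
  · obtain ⟨p, q, r, s, e⟩ := like h (by decide +kernel) (by decide +kernel)
    obtain ⟨p', q', r', s', e'⟩ := like h3 (by decide +kernel) (by decide +kernel)
    have k1 := (e.mul e).2 0 (by decide)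
    rw [b2, Perm.one_apply, x.injective.eq_iff] at k1
    have k2 := e.comm e' c 4 (by decide)
    have k3 : ∀ p q r s, (0 : Fin 10) = (s12 * cc p q r s * (s12 * cc p q r s)) 0 → p = q := by
      decide +kernel
    have k4 : ∀ p q r s p' q' r' s', (s12 * cc p q r s * (s34 * cc p' q' r' s')) 4 =
      (s34 * cc p' q' r' s' * (s12 * cc p q r s)) 4 → r = s := by decide +kernel
    obtain rfl := k3 _ _ _ _ k1
    obtain rfl := k4 _ _ _ _ _ _ _ _ k2
    have k5 : ∀ p r, ∀ i < 8, (s12 * cc p p r r) i = (s12 * pw p ww * pw r vv) i := by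
      decide +kernel
    exact ⟨p, r, e.dec (k5 p r)⟩
  · obtain ⟨p, q, r, s, e⟩ := like_one h
    obtain ⟨p1, q1, r1, s1, e1⟩ := like h1 (by decide +kernel) (by decide +kernel)
    obtain ⟨p2, q2, r2, s2, e2⟩ := like h2 (by decide +kernel) (by decide +kernel)
    obtain ⟨p3, q3, r3, s3, e3⟩ := like h3 (by decide +kernel) (by decide +kernel)
    have k1 : ∀ p q r s p' q' r' s', (cc p q r s * (s12 * cc p' q' r' s')) 0 =
      (s12 * cc p' q' r' s' * cc p q r s) 0 → p = q := by decide +kernel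
    have k2 : ∀ p q r s p' q' r' s', (cc p q r s * (s23 * cc p' q' r' s')) 2 =
      (s23 * cc p' q' r' s' * cc p q r s) 2 → q = r := by decide +kernel
    obtain rfl := k1 _ _ _ _ _ _ _ _ (e.comm e1 c1 0 (by decide))
    obtain rfl := k2 _ _ _ _ _ _ _ _ (e.comm e2 c2 2 (by decide))
    have k3 : ∀ p s, ∀ i < 8, cc p p p s i = (pw (xor p s) t4 * pw p zz) i := by decide +kernel
    have k4 : ∀ p s p' q' r' s', xor p s = true ↔ ¬ ∀ i < 8, (cc p p p s * (s34 * cc p' q' r' s') *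
      (cc p p p s)⁻¹ * (s34 * cc p' q' r' s')⁻¹) i = i := by decide +kernel
    obtain ⟨σ, hσ, e4⟩ := e.dec (k3 p s)
    refine ⟨_, _, σ, hσ, e4, (k4 p s p3 q3 r3 s3).trans (not_congr ?_)⟩
    rw [mem_iff]
    refine forall₂_congr fun i hi => ?_
    rw [commutatorElement_def, (((e.mul e3).mul e.inv).mul e3.inv).2 i hi, x.injective.eq_iff]

end Cfsg.Agent.H94.AnP4d
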