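import Cfsg.Agent.H35.RfQ

/-! Project RF, piece ENDJ. -/

set_option autoImplicit false

namespace Cfsg.Agent.H94.RfEndJ

open Cfsg Subgroup Cfsg.Agent.H42 Cfsg.Agent.H18.Rf Cfsg.Agent.H35.RF
open scoped commutatorElement Pointwise

universe u

theorem syl {N : Type*} [Group N] [Finite N] (hN : Nat.card N = 3 * 2 ^ 13) {a b : N}
    (ha : orderOf a = 3) (hb : orderOf b = 3) : ∃ n : N, n * b * n⁻¹ ∈ zpowers a := by
  have : Fact (Nat.Prime 3) := ⟨Nat.prime_three⟩
  have p : ∀ x : N, orderOf x = 3 → IsPGroup 3 (zpowers x) := fun x hx =>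
    IsPGroup.of_card (n := 1) (by rw [Nat.card_zpowers, hx, pow_one])
  have i : (zpowers a).index = 2 ^ 13 := by
    have := (zpowers a).card_mul_index
    rw [Nat.card_zpowers, ha, hN] at this
    omega
  obtain ⟨S, hS⟩ := (p b hb).exists_le_sylow
  obtain ⟨n, hn⟩ := MulAction.exists_smul_eq N S ((p a ha).toSylow (by rw [i]; norm_num))
  refine ⟨n, ?_⟩
  have h := congrArg (fun T : Sylow 3 N => (T : Subgroup N)) hn
  simp only [IsPGroup.toSylow_coe, Sylow.coe_subgroup_smul] at h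
  rw [← h]
  exact smul_mem_pointwise_smul b (MulAut.conj n) _ (hS (mem_zpowers b))

theorem endJ (hL : LtaStmt.{u}) : EndJStmt.{u} := by
  intro G X A _ _ _ _ _ _ V z W R Q π α φ s ω co cq qt xf χ hχ hk
  have : Fact (Nat.Prime 2) := ⟨Nat.prime_two⟩
  have : Fact (Nat.Prime 3) := ⟨Nat.prime_three⟩
  obtain ⟨-, l2, -, l4⟩ := hL G V z W R Q ω co.vc.toVa co.a co.ql
  have QH : Q ≤ C1 z := fun q hq => mem_centralizer_singleton_iff.2 (co.lx.cen q hq)
  have e : twoCoreOfCentralizer z = Q := by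
    refine le_antisymm (co.o2 _ ((H3.pCore_isPGroup 2 _).map _) (map_subtype_le _) ?_) ?_
    · refine (normal_subgroupOf_iff_le_normalizer (map_subtype_le _)).1 ?_
      rw [subgroupOf, comap_map_eq_self_of_injective (C1 z).subtype_injective]
      infer_instance
    · have : (Q.subgroupOf (C1 z)).Normal := (normal_subgroupOf_iff_le_normalizer QH).2 co.lx.nz
      intro q hq
      exact ⟨⟨q, QH hq⟩, H3.le_pCore (N := Q.subgroupOf (C1 z)) co.lx.toXS.isPGroup.comap_subtype hq,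
        rfl⟩
  have o3 : orderOf ω = 3 := (Subgroup.orderOf_coe ω).symm.trans co.a.o3
  have p3 : orderOf (π ω) = 3 := by
    refine orderOf_eq_prime (by rw [← map_pow, ← o3, pow_orderOf_eq_one, map_one]) fun h => ?_
    have := orderOf_dvd_natCard (⟨ω, (qt.πk ω).1 h⟩ : Q)
    rw [← Subgroup.orderOf_coe, co.a.o3, co.cQ] at this
    norm_num at this
  have mk : ∀ c, c ∈ (χ.comp π).ker ↔ π c ∈ zpowers (π ω) := fun c => by rw [← hk]; rfl
  have ωk : ω ∈ (χ.comp π).ker := (mk ω).2 (mem_zpowers _)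
  have cK : Nat.card (χ.comp π).ker = 3 * 2 ^ 13 := by
    have h1 : π.ker = Q.subgroupOf (C1 z) := Subgroup.ext qt.πk
    have h2 : π.ker ≤ (χ.comp π).ker := fun c hc => (mk c).2 (by rw [hc]; exact one_mem _)
    have h3 : ((χ.comp π).ker).map π = zpowers (π ω) := by
      rw [← hk, ← MonoidHom.comap_ker, map_comap_eq_self_of_surjective qt.πs]
    rw [← (π.ker.subgroupOf (χ.comp π).ker).card_mul_index, ← relIndex, relIndex_ker, h3,
      Nat.card_zpowers, p3, Nat.card_congr (subgroupOfEquivOfLe h2).toEquiv, h1,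
      Nat.card_congr (subgroupOfEquivOfLe QH).toEquiv, co.cQ, mul_comm]
  have eN : (((χ.comp π).ker).map (C1 z).subtype).subgroupOf (C1 z) = (χ.comp π).ker :=
    comap_map_eq_self_of_injective (C1 z).subtype_injective _
  refine ⟨z, zpowers (ω : G), ?_⟩
  rw [IsOfJankoFourTypeWith, e, H49.centralizer_zpowers']
  refine ⟨orderOf_eq_prime (by rw [pow_two, co.lx.zz]) co.lx.ne, co.lx.toXS.isExtraspecial, co.cQ,
    inf_le_right.trans co.lx.cQ, ⟨((χ.comp π).ker).map (C1 z).subtype, fun q hq => ⟨⟨q, QH hq⟩,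
      (mk _).2 (by rw [(qt.πk ⟨q, QH hq⟩).2 hq]; exact one_mem _), rfl⟩, map_subtype_le _, ?_, ?_, ?_, ?_⟩,
    by rw [Nat.card_zpowers, co.a.o3], le_antisymm ?_ ?_, ?_, ?_⟩
  · refine (normal_subgroupOf_iff_le_normalizer (map_subtype_le _)).1 ?_
    rw [eN]
    infer_instance
  · rw [card_map_of_injective (C1 z).subtype_injective, cK, co.cQ]
  · rw [eN]
    exact ⟨inferInstance, ⟨QuotientGroup.quotientKerEquivOfSurjective _ (hχ.comp qt.πs)⟩⟩
  · exact zpowers_le.2 ⟨ω, ωk, rfl⟩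
  · rintro q ⟨h1, h2⟩
    refine l2 ⟨h1, mem_CM.2 ⟨?_, ?_⟩⟩
    · refine centralizer_le_normalizer _ ?_
      rw [H49.centralizer_zpowers']
      exact QH h1
    · rintro _ rfl
      rw [mem_centralizer_singleton_iff.1 h2]
      simp
  · exact zpowers_le.2 ⟨co.lx.mem,
      mem_centralizer_singleton_iff.2 (mem_centralizer_singleton_iff.1 ω.2).symm⟩
  · intro h
    obtain ⟨m, hm, hm'⟩ := co.a.inv
    have h1 := (qt.πk (⟨m, hm.2⟩ * ω * ⟨m, hm.2⟩⁻¹ * ω)).2
      (l4 m hm ((co.a.sl m hm).resolve_left hm'))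
    generalize (⟨m, hm.2⟩ : C1 z) = c at h1
    rw [map_mul, mul_eq_one_iff_eq_inv] at h1
    obtain ⟨n, hn⟩ := syl cK (a := ⟨ω, ωk⟩)
      (b := ⟨c * ω * c⁻¹, (MonoidHom.normal_ker _).conj_mem _ ωk c⟩)
      ((Subgroup.orderOf_coe _).symm.trans o3) ((Subgroup.orderOf_coe _).symm.trans
        (by rw [← o3]; exact MulEquiv.orderOf_eq (MulAut.conj c) ω))
    obtain ⟨k, hk'⟩ := hn
    have h2 : ω ^ k = (n * c) * ω * (n * c)⁻¹ := by
      have := congrArg Subtype.val hk'
      simp only [SubgroupClass.coe_zpow, Subgroup.coe_mul, InvMemClass.coe_inv] at this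
      rw [this]
      group
    have h3 : ((n * c : C1 z) : G) ∈ C1 z ⊓ normalizer (zpowers (ω : G) : Set G) := by
      refine ⟨(n * c : C1 z).2, mem_normalizer_fintype ?_⟩
      rintro _ ⟨j, rfl⟩
      refine ⟨k * j, ?_⟩
      have := congrArg Subtype.val h2
      simp only [SubgroupClass.coe_zpow, Subgroup.coe_mul, InvMemClass.coe_inv] at this
      simp only [zpow_mul, this, conj_zpow, Subgroup.coe_mul]
    rw [h] at h3
    have h4 : (n * c : C1 z) * ω = ω * (n * c) :=
      Subtype.ext (mem_centralizer_singleton_iff.1 h3.2)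
    obtain ⟨j, hj⟩ := (mk _).1 n.2
    have h5 : π ω = π n * π (c * ω * c⁻¹) * (π n)⁻¹ := by
      rw [← map_inv, ← map_mul, ← map_mul]
      congr 1
      rw [← mul_inv_eq_iff_eq_mul] at h4
      exact h4.symm.trans (by group)
    rw [h1, ← hj] at h5
    have h6 : π ω ^ 2 = 1 := by
      rw [pow_two]
      nth_rw 1 [h5]
      group
    have := orderOf_dvd_of_pow_eq_one h6
    rw [p3] at this
    norm_num at this
  · exact zpowers_le.2 (commutator_mono (inf_le_inf_right _ inf_le_right)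
      (inf_le_inf_right _ inf_le_right) co.e.perf)

end Cfsg.Agent.H94.RfEndJ
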