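import Cfsg.Agent.H6.TBDefs
import Cfsg.Agent.H83.Cores

/-!
# Project TB: all neighbours of `B` have their axis in `B A'`
-/

set_option autoImplicit false

namespace Cfsg.Agent.H94.TBX

open Cfsg Subgroup Cfsg.Agent.H6.TB
open Cfsg.Agent.H83 (cj)
open scoped Cfsg.Agent.H63 commutatorElement

universe u

variable {G : Type u} [Group G] {Ω : Set (Subgroup G)} {B P Q : Subgroup G}

/-- `g` acts trivially on `om B` and on `B / om B`. -/
def Qd (B : Subgroup G) (g : G) : Prop := g ∈ C[om B] ∧ ∀ x ∈ B, ⁅x, g⁆ ∈ om B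

theorem Qd.act {g x : G} (h : Qd B g) (hx : x ∈ B) : ∃ c ∈ om B, g * x * g⁻¹ = c * x :=
  ⟨⁅x, g⁆⁻¹, inv_mem (h.2 x hx), by rw [commutatorElement_def]; group⟩

theorem Qd.comm {a g : G} (ha : Qd B a) (hg : Qd B g) (hB : ∀ x ∈ B, ∀ y ∈ B, x * y = y * x) :
    ⁅a, g⁆ ∈ C[B] := fun x hx => by
  have k : ∀ {a g c d : G}, d * a = a * d → a * x * a⁻¹ = c * x →
      g * x * g⁻¹ = d * x → a * g * x * (a * g)⁻¹ = d * c * x := fun {a g c d} ha e1 e2 => by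
    calc _ = a * (g * x * g⁻¹) * a⁻¹ := by group
      _ = a * d * a⁻¹ * (a * x * a⁻¹) := by rw [e2]; group
      _ = _ := by rw [e1, ← ha]; group
  have k' : ∀ {a c : G}, c * a = a * c → a * x * a⁻¹ = c * x → a⁻¹ * x * a⁻¹⁻¹ = c⁻¹ * x :=
    fun {a c} ha e => by
    have : x = a⁻¹ * (c * x) * a := by rw [← e]; group
    calc _ = c⁻¹ * (c * a⁻¹) * x * a := by group
      _ = c⁻¹ * (a⁻¹ * (c * x) * a) := by
        rw [show c * a⁻¹ = a⁻¹ * c from (show Commute c a from ha).inv_right]; group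
      _ = _ := by rw [← this]
  obtain ⟨c, hc, e1⟩ := ha.act hx
  obtain ⟨d, hd, e2⟩ := hg.act hx
  have e3 := k (ha.1 d hd) e1 e2
  have e4 := k ((inv_mem ha.1 : a⁻¹ ∈ C[om B]) _ (inv_mem hd)) (k' (ha.1 c hc) e1) (k' (hg.1 d hd) e2)
  have e5 := k ((mul_mem ha.1 hg.1 : a * g ∈ C[om B]) _ (mul_mem (inv_mem hd) (inv_mem hc))) e3 e4
  rw [← hB c (om_le B hc) d (om_le B hd), show d⁻¹ * c⁻¹ * (c * d) = 1 by group, one_mul] at e5
  rw [commutatorElement_def, mul_assoc (a * g)]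
  exact (mul_inv_eq_iff_eq_mul.1 e5).symm

theorem exists3 {A : Subgroup G} (h : Nat.card A = 4) (a : G) : ∃ b ∈ A, b ≠ 1 ∧ b ≠ a := by
  by_contra! k
  have : Finite A := Nat.finite_of_card_ne_zero (by omega)
  have h1 : (A : Set G) ⊆ {1, a} := fun b hb => by
    rcases eq_or_ne b 1 with e | e
    exacts [.inl e, .inr (k b hb e)]
  have h2 := (Set.ncard_le_ncard h1).trans (Set.ncard_insert_le 1 {a})
  rw [Set.ncard_singleton, ← Nat.card_coe_set_eq, SetLike.coe_sort_coe, h] at h2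
  omega

section

variable (c : C0 Ω)
include c

theorem sq {a : G} (hP : P ∈ Ω) (ha : a ∈ om P) : a * a = 1 := ((c.la.mem_om P hP a).1 ha).2

theorem inv_eq {a : G} (hP : P ∈ Ω) (ha : a ∈ om P) : a⁻¹ = a :=
  inv_eq_of_mul_eq_one_right (sq c hP ha)

theorem qd (e : Ad Ω B P) {a : G} (ha : a ∈ om P) : Qd B a :=
  ⟨fun b hb => c.le.adc e b hb a ha, fun x hx => c.le.brk e x hx a (mem_sup_right ha)⟩

theorem omN (e : Ad Ω B P) : om P ≤ N[B] := le_sup_right.trans (c.le.vle e)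

theorem dis (e : Ad Ω B P) {a : G} (ha : a ∈ B) (hb : a ∈ P) : a = 1 := by
  by_contra k
  exact e.ne (c.la.eq B e.l P e.r a ha hb k)

/-- An element of `C(om B)` inverts whole cosets of `om B`. -/
theorem iv_coset (hB : B ∈ Ω) {a x y : G} (ha : a ∈ C[om B]) (hx : x ∈ B) (hy : y ∈ B)
    (h : x * y ∈ om B) (k : Iv a y) : Iv a x := by
  have e : x = x * y * y⁻¹ := by group
  have e1 := ha _ h
  rw [Iv] at k ⊢
  calc _ = a * (x * y) * a⁻¹ * (a * y * a⁻¹)⁻¹ := by group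
    _ = x * y * y := by rw [k, ← e1]; group
    _ = (x * y)⁻¹ * y := by rw [inv_eq c hB h]
    _ = (y * x)⁻¹ * y := by rw [c.comm B hB x hx y hy]
    _ = _ := by group

end

theorem iv_left {a g : G} (ha : a * a = 1) (hg : g * g = 1) : Iv g ⁅g, a⁆ := by
  rw [Iv, commutatorElement_inv, commutatorElement_def, commutatorElement_def,
    inv_eq_of_mul_eq_one_right ha, inv_eq_of_mul_eq_one_right hg]
  calc _ = g * g * (a * g * a * g) := by group
    _ = _ := by rw [hg, one_mul]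

theorem iv_right {a g : G} (ha : a * a = 1) (hg : g * g = 1) : Iv a ⁅g, a⁆ := by
  rw [Iv, commutatorElement_inv, commutatorElement_def, commutatorElement_def,
    inv_eq_of_mul_eq_one_right ha, inv_eq_of_mul_eq_one_right hg]
  calc _ = a * g * a * g * (a * a) := by group
    _ = _ := by rw [ha, mul_one]

variable [Finite G] (c : CX Ω) (xa : XA Ω)
include c xa

omit [Finite G] in
theorem stepA (xl : XL Ω) {B₁ : Subgroup G} (e1 : Ad Ω B B₁) (e : Ad Ω B P)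
    (hN : om P ≤ N[B ⊔ om B₁]) : om P ≤ B ⊔ om B₁ := by
  have n1 := c.nc _ _ e1
  have n := c.nc _ _ e
  have key : ∀ g ∈ om P, ∀ a ∈ om B₁, ⁅g, a⁆ ∈ B := fun g hg a ha => by
    refine (xa.sC n1).le (mem_inf.2 ⟨?_, (qd c.toC0 e hg).comm (qd c.toC0 e1 ha) (c.comm B e.l)⟩)
    exact mul_mem (H83.conj_mem hN hg (mem_sup_right ha)) (inv_mem (mem_sup_right ha))
  by_cases h : ∀ g ∈ om P, ∀ a ∈ om B₁, ∀ b ∈ om B₁, a * (g * b * g⁻¹) = g * b * g⁻¹ * a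
  · rcases eq_or_ne B₁ P with rfl | ne
    · exact le_sup_right
    by_cases ad : Ad Ω B₁ P
    · obtain ⟨x, hx, rfl⟩ := xa.tri n1 (c.la.symm e) (c.la.symm ad)
      rw [om_cj]
      exact H83.cj_le_of_mem le_sup_right (mem_sup_left hx)
    obtain ⟨R, hR⟩ := c.lx B₁ e1.r P e.r ne ad h
    obtain ⟨r, hr, r1, -⟩ := exists3 hR.c4.1 1
    obtain ⟨a, ha, g, hg, rfl⟩ := hR.sur r hr
    obtain rfl : R = B := c.la.eq R hR.n1.l B e.l _ (om_le R hr)
      (by rw [← commutatorElement_inv]; exact inv_mem (key g hg a ha)) r1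
    exact xl hR
  exfalso
  push Not at h
  obtain ⟨g, hg, a, ha, a1, ha1, h⟩ := h
  have g2 := sq c.toC0 e.r hg
  have ecj : ∀ b : G, g * b * g⁻¹ = ⁅g, b⁆ * b := fun b => by rw [commutatorElement_def]; group
  have y1 : ⁅g, a1⁆ ∉ om B := fun k => h (c.le.vcomm e1 a (mem_sup_right ha) _ (by
    rw [ecj]; exact mul_mem (mem_sup_left k) (mem_sup_right ha1)))
  obtain ⟨a3, ha3, a31, a33⟩ := exists3 (c.c4 B₁ e1.r).1 a1
  have y3 : ⁅g, a3⁆ ∉ om B := fun k => by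
    have h1 : g * a3 * g⁻¹ ∈ vv B B₁ := by rw [ecj]; exact mul_mem (mem_sup_left k) (mem_sup_right ha3)
    obtain ⟨x, hx, h2⟩ := c.lb.part n1 (by rw [(c.c4 B e.l).1, (c.c4 B e.l).2]) _ h1 fun k' => by
      rw [ecj] at k'
      exact a31 (dis c.toC0 e1 (om_le B ((mul_mem_cancel_left k).1 k')) (om_le _ ha3))
    have h3 : cj g B₁ = cj x B₁ := c.la.eq _ (c.conj _ e1.r g) _ (c.conj _ e1.r x) _
      (H83.conj_mem_cj (om_le _ ha3)) (H83.cj_mono x (om_le _) h2) (by simpa using a31)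
    have h4 : g * a1 * g⁻¹ ∈ vv B B₁ := by
      have := om_cj_le g B₁ (H83.conj_mem_cj ha1)
      rw [h3, om_cj] at this
      exact H83.cj_le_of_norm le_sup_right (c.le.vnorm e1 (mem_sup_left hx)) this
    exact y1 ((c.le.vinf e1).le (mem_inf.2 ⟨mul_mem h4 (inv_mem (mem_sup_right ha1)), key g hg a1 ha1⟩))
  have h5 := xa.one n g hg _ (key g hg a1 ha1) y1 _ (key g hg a3 ha3) y3
    (iv_left (sq c.toC0 e1.r ha1) g2) (iv_left (sq c.toC0 e1.r ha3) g2)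
  exact a33 ((c.le.ivE n1 _ (key g hg a1 ha1) y1).unique
    ⟨ha3, iv_coset c.toC0 e.l (qd c.toC0 e1 ha3).1 (key g hg a1 ha1) (key g hg a3 ha3) h5
      (iv_right (sq c.toC0 e1.r ha3) g2)⟩ ⟨ha1, iv_right (sq c.toC0 e1.r ha1) g2⟩)

theorem stepB (xl : XL Ω) {B₁ T : Subgroup G} (e1 : Ad Ω B B₁) (hT : IsPGroup 2 T)
    (h1 : B ⊔ om B₁ ≤ T) (h2 : T ≤ N[B]) : T ≤ N[B ⊔ om B₁] := by
  have : Fact (Nat.Prime 2) := ⟨Nat.prime_two⟩
  by_contra k
  refine (H83.lt_inf_normalizer hT (A := T ⊓ N[B ⊔ om B₁])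
    (lt_of_le_of_ne inf_le_left fun e => k (inf_eq_left.1 e))).not_ge fun t ht => ⟨ht.1, ?_⟩
  have h3 : om (cj t B₁) ≤ B ⊔ om B₁ := stepA c xa xl e1 (e1.cjN c.toTB (h2 ht.1)) (by
    rw [om_cj]
    exact (H83.cj_le_of_norm (le_inf (le_sup_right.trans h1) (le_sup_right.trans le_normalizer))
      ht.2).trans inf_le_right)
  refine H83.cj_eq_self_iff.1 (eq_of_le_of_card_ge ?_ (H83.card_cj _ _).ge)
  rw [H83.cj_sup, H83.cj_eq_self (h2 ht.1), ← om_cj]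
  exact sup_le le_sup_left h3

theorem stepC (gb : GB Ω) (xl : XL Ω) {B₁ : Subgroup G} (e1 : Ad Ω B B₁) :
    oo B ≤ N[B ⊔ om B₁] :=
  le_sup_left.trans (stepB c xa xl e1
    (gb.sup B e1.l _ ((c.two B₁ e1.r).to_le (om_le _)) (omN c.toC0 e1))
    (sup_le_sup_right (gb.pt B e1.l) _) (sup_le (gb.le B e1.l) (omN c.toC0 e1)))

theorem stepD (gb : GB Ω) (xl : XL Ω) {B₁ : Subgroup G} (e1 : Ad Ω B B₁) : om B₁ ≤ oo B := by
  have key : ∀ {P}, Ad Ω B P → ∀ a ∈ om P, ∀ y ∈ oo B, y ∈ C[B] → ∃ b ∈ B, a * y * a⁻¹ = b * y :=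
    fun {P} e a ha y hy hy' => by
    refine ⟨a * y * a⁻¹ * y⁻¹, (xa.sC (c.nc _ _ e)).le (mem_inf.2 ⟨?_, ?_⟩), by group⟩
    · have := mul_mem (mem_sup_right ha : a ∈ B ⊔ om P)
        (H83.conj_mem (stepC c xa gb xl e) hy (inv_mem (mem_sup_right ha)))
      simpa only [mul_assoc] using this
    · exact mul_mem (H83.conj_mem (H83.le_norm_cent (omN c.toC0 e)) ha hy') (inv_mem hy')
  intro a ha
  refine gb.bs B e1.l a (qd c.toC0 e1 ha).1 (sq c.toC0 e1.r ha) (qd c.toC0 e1 ha).2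
    fun m hm ρ hρ ho hc y hy hy' => ?_
  obtain ⟨b, hb, e2⟩ := key e1 a ha y hy hy'
  obtain ⟨b', hb', e3⟩ := key (e1.cjN c.toTB hm) _ (om_cj_le m B₁ (H83.conj_mem_cj ha)) y hy hy'
  obtain ⟨d, hd, e4⟩ : ∃ d ∈ B, ρ * y * ρ⁻¹ = d * y :=
    ⟨a * b' * a⁻¹ * b, mul_mem (H83.conj_mem (omN c.toC0 e1) ha hb') hb, by
      calc _ = a * (m * a * m⁻¹ * y * (m * a * m⁻¹)⁻¹) * a⁻¹ := by rw [hρ]; group
        _ = a * b' * a⁻¹ * (a * y * a⁻¹) := by rw [e3]; group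
        _ = _ := by rw [e2]; group⟩
  have e5 : ∀ k : ℕ, ρ ^ k * y * (ρ ^ k)⁻¹ = d ^ k * y := fun k => by
    induction k with
    | zero => simp
    | succ k ih =>
      have : ρ * d ^ k * ρ⁻¹ = d ^ k := by rw [← hc _ (pow_mem hd k)]; group
      calc _ = ρ * (ρ ^ k * y * (ρ ^ k)⁻¹) * ρ⁻¹ := by group
        _ = ρ * d ^ k * ρ⁻¹ * (ρ * y * ρ⁻¹) := by rw [ih]; group
        _ = _ := by rw [this, e4]; group
  have e6 := e5 (orderOf ρ)
  rw [pow_orderOf_eq_one, one_mul, inv_one, mul_one, eq_comm, mul_eq_right] at e6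
  rw [H83.eq_one_of_mem_pgroup (c.two B e1.l) hd
    (ho.coprime_two_right.coprime_dvd_left (orderOf_dvd_of_pow_eq_one e6)), one_mul] at e4
  exact mul_inv_eq_iff_eq_mul.1 e4

omit c xa [Finite G] in
theorem xb : XBStmt.{u} := fun _ c gb xa xl _ _ _ e1 e2 =>
  stepA c xa xl e1 e2 ((stepD c xa gb xl e2).trans (stepC c xa gb xl e1))

end Cfsg.Agent.H94.TBX
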